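import Cfsg.Agent.Lib.FusionSimple2.Codes
import Cfsg.Agent.Lib.TC.D.SuzChain.S1_Tab
import Cfsg.Agent.Lib.G24Sch.CovData

/-!
# Kernel checks for the twofold cover of `G₂(4)`
-/

set_option autoImplicit false
set_option maxRecDepth 100000

namespace Cfsg.Agent.Lib.G24Sch.Cov

open Cfsg.Agent.Lib.PermComp.Core Cfsg.Agent.Lib.FusionSimple2.Codes
open Cfsg.Agent.Lib.TC.D.SuzChain.S1_Tab (rels')

local notation "ap" => app 13 8191

/-- The points. -/
noncomputable def rng : List ℕ := List.range 8064

/-- The image of a point under a relator, the first letter acting first. -/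
noncomputable def evR (u : List ℕ) : ℕ → ℕ :=
  List.rec (motive := fun _ => ℕ → ℕ) (fun x => x)
    (fun a _ ih x => force (ap (nthN CL a) x) ih) u

/-- The square of the letter `3`. -/
noncomputable def zf (p : ℕ) : ℕ := ap L3 (ap L3 p)

theorem chk_L : allL (fun c => allL (fun p => ifB (Nat.blt (ap c p) 8064)
    (Nat.beq (ap c (ap c (ap c (ap c p)))) p)) rng) CL = true := by
  decide +kernel

/-- A relator acts as `1` or as `z`. -/
noncomputable def relOK (l : List ℕ) : Bool :=
  orC (allL (fun p => Nat.beq (evR l p) p) rng) (allL (fun p => Nat.beq (evR l p) (zf p)) rng)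

theorem chk_rels1 : allL relOK (rels'.take 21) = true := by
  decide +kernel

theorem chk_rels2 : allL relOK ((rels'.drop 21).take 2) = true := by
  decide +kernel

theorem chk_rels3 : allL relOK (rels'.drop 23) = true := by
  decide +kernel

theorem chk_z : allL (fun c => allL (fun p => Nat.beq (ap c (zf p)) (zf (ap c p))) rng) CL = true := by
  decide +kernel

/-- `z` moves the point `0`, to the point `1`; the letter `3` moves `0` to neither. -/
theorem chk_0 : ifB (Nat.beq (zf 0) 1) (ifB (neB (ap L3 0) 0) (neB (ap L3 0) 1)) = true := by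
  decide +kernel

end Cfsg.Agent.Lib.G24Sch.Cov
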