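import Cfsg.Agent.Lib.G24Sch.CovChk
import Cfsg.Agent.Lib.TC.D.SuzH.Tgt
import Cfsg.Agent.Lib.TC.Perf
import Cfsg.Agent.Lib.Schur.Stem

/-!
# A twofold cover of `G₂(4)`

Signed permutations of `4032` points satisfy the relators of the presentation of `G₂(4)` up to the
central sign change `z`, and the letter `3` squares to `z`.  So the group they generate is a stem
extension of the simple group `G₂(4)` by a group of order `2`.
-/

set_option autoImplicit false
set_option maxRecDepth 100000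

namespace Cfsg.Agent.Lib.G24Sch.Cov

open Cfsg Subgroup
open Cfsg.Agent.Lib.PermComp.Core Cfsg.Agent.Lib.FusionSimple2.Codes
open Cfsg.Agent.Lib.TC.Core Cfsg.Agent.Lib.TC.Iso Cfsg.Agent.Lib.TC.SubPres Cfsg.Agent.Lib.TC.D.SuzH.Ok
  Cfsg.Agent.Lib.TC.D.SuzChain.S1_Tab

local notation "ap" => app 13 8191
local notation "PX" => Equiv.Perm (Fin 8064)

theorem mem_rng {x : ℕ} : x ∈ rng ↔ x < 8064 := List.mem_range

theorem L_spec {c : ℕ} (hc : c ∈ CL) {p : ℕ} (hp : p < 8064) :
    ap c p < 8064 ∧ ap c (ap c (ap c (ap c p))) = p := by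
  have := (ifB_eq_true _ _).1 ((allL_eq_true _ _).1 ((allL_eq_true _ _).1 chk_L c hc) p (mem_rng.2 hp))
  exact ⟨Nat.le_of_ble_eq_true this.1, Nat.eq_of_beq_eq_true this.2⟩

theorem nth_mem {c : ℕ} (hc : c < 6) : nthN CL c ∈ CL := nthN_mem CL c hc

/-- The permutation of a code. -/
noncomputable def perm {c : ℕ} (hc : c ∈ CL) : PX where
  toFun x := ⟨ap c x, (L_spec hc x.2).1⟩
  invFun x := ⟨ap c (ap c (ap c x)), (L_spec hc (L_spec hc (L_spec hc x.2).1).1).1⟩
  left_inv x := Fin.ext (L_spec hc x.2).2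
  right_inv x := by
    apply Fin.ext
    show ap c (ap c (ap c (ap c x))) = x
    exact (L_spec hc x.2).2

/-- The letters. -/
noncomputable def Lt (c : ℕ) : PX := if h : c < 6 then perm (nth_mem h) else 1

theorem Lt_val {c : ℕ} (hc : c < 6) (x : Fin 8064) : ((Lt c x : Fin 8064) : ℕ) = ap (nthN CL c) x := by
  rw [Lt, dif_pos hc]
  rfl

theorem evR_cons (a : ℕ) (u : List ℕ) (x : ℕ) : evR (a :: u) x = evR u (ap (nthN CL a) x) := by
  show Cfsg.Agent.Lib.PermComp.Core.force _ _ = _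
  rw [Cfsg.Agent.Lib.PermComp.Core.force_eq]
  rfl

theorem prodA_val {l : List ℕ} (hl : ∀ z ∈ l, z < 6) (x : Fin 8064) :
    ((prodA Lt l) x : ℕ) = evR l x := by
  induction l generalizing x with
  | nil => rfl
  | cons z l ih =>
    rw [prodA_cons, evR_cons, Equiv.Perm.mul_apply, ih (fun y hy => hl y (List.mem_cons_of_mem _ hy)),
      Lt_val (hl z List.mem_cons_self)]

/-- The central sign change. -/
noncomputable def zz : PX := Lt 3 * Lt 3

theorem zz_val (x : Fin 8064) : ((zz x : Fin 8064) : ℕ) = zf x := by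
  show ((Lt 3 (Lt 3 x) : Fin 8064) : ℕ) = _
  rw [Lt_val (by norm_num), Lt_val (by norm_num)]
  rfl

theorem relOK_all : allL relOK rels' = true := by
  have h : rels' = rels'.take 21 ++ ((rels'.drop 21).take 2 ++ rels'.drop 23) := by decide +kernel
  refine (allL_eq_true _ _).2 fun l hl => ?_
  rw [h] at hl
  rcases List.mem_append.1 hl with hl | hl
  · exact (allL_eq_true _ _).1 chk_rels1 l hl
  rcases List.mem_append.1 hl with hl | hl
  · exact (allL_eq_true _ _).1 chk_rels2 l hl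
  · exact (allL_eq_true _ _).1 chk_rels3 l hl

theorem rel_cases {l : List ℕ} (hl : l ∈ rels') : prodA Lt l = 1 ∨ prodA Lt l = zz := by
  have h := (allL_eq_true _ _).1 relOK_all l hl
  rcases (orC_eq_true _ _).1 h with h | h
  · left
    ext x
    rw [prodA_val (hk l hl)]
    exact Nat.eq_of_beq_eq_true ((allL_eq_true _ _).1 h x (mem_rng.2 x.2))
  · right
    ext x
    rw [prodA_val (hk l hl), zz_val]
    exact Nat.eq_of_beq_eq_true ((allL_eq_true _ _).1 h x (mem_rng.2 x.2))

theorem zz_comm {c : ℕ} (hc : c < 6) : Lt c * zz = zz * Lt c := by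
  ext x
  rw [Equiv.Perm.mul_apply, Equiv.Perm.mul_apply, Lt_val hc, zz_val, zz_val, Lt_val hc]
  exact Nat.eq_of_beq_eq_true ((allL_eq_true _ _).1 ((allL_eq_true _ _).1 chk_z _ (nth_mem hc)) x (mem_rng.2 x.2))

theorem zz_sq : zz * zz = 1 := by
  ext x
  rw [Equiv.Perm.mul_apply, zz_val, zz_val]
  exact (L_spec (c := L3) (by simp [CL]) x.2).2

theorem chk0 : zf 0 = 1 ∧ ap L3 0 ≠ 0 ∧ ap L3 0 ≠ 1 := by
  have := (ifB_eq_true _ _).1 chk_0
  have h2 := (ifB_eq_true _ _).1 this.2
  exact ⟨Nat.eq_of_beq_eq_true this.1, neB_spec h2.1, neB_spec h2.2⟩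

theorem zz_ne : zz ≠ 1 := by
  intro h
  have := zz_val 0
  rw [h] at this
  have h0 : zf ((0 : Fin 8064) : ℕ) = 1 := chk0.1
  rw [h0] at this
  exact absurd this (by simp)

theorem Lt3_val0 : ((Lt 3 0 : Fin 8064) : ℕ) = ap L3 0 := Lt_val (c := 3) (by norm_num) 0

theorem Lt3_ne_one : Lt 3 ≠ 1 := by
  intro h
  have := Lt3_val0
  rw [h] at this
  exact chk0.2.1 this.symm

theorem Lt3_ne_zz : Lt 3 ≠ zz := by
  intro h
  have h1 := Lt3_val0
  rw [h, zz_val] at h1
  have h0 : zf ((0 : Fin 8064) : ℕ) = 1 := chk0.1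
  rw [h0] at h1
  exact chk0.2.2 h1.symm

/-- The group generated by the letters. -/
noncomputable def Q : Subgroup PX := closure (Set.range fun c : Fin 6 => Lt c)

theorem Lt_mem {c : ℕ} (hc : c < 6) : Lt c ∈ Q := subset_closure ⟨⟨c, hc⟩, rfl⟩

theorem zz_memQ : zz ∈ Q := mul_mem (Lt_mem (by norm_num)) (Lt_mem (by norm_num))

/-- The sign change in `Q`. -/
noncomputable def zQ : Q := ⟨zz, zz_memQ⟩

theorem zQ_central (x : Q) : x * zQ = zQ * x := by
  apply Subtype.ext
  show (x : PX) * zz = zz * x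
  have hle : Q ≤ centralizer {zz} := by
    refine (closure_le _).2 ?_
    rintro _ ⟨c, rfl⟩
    rw [SetLike.mem_coe, mem_centralizer_iff]
    intro h hh
    rw [Set.mem_singleton_iff.1 hh]
    exact (zz_comm c.2).symm
  have := mem_centralizer_iff.1 (hle x.2) zz rfl
  exact this.symm

/-- The subgroup generated by the sign change. -/
noncomputable def Zs : Subgroup Q := zpowers zQ

theorem Zs_le_center : Zs ≤ center Q := by
  rw [Zs, zpowers_le, mem_center_iff]
  intro x
  exact zQ_central x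

instance : Zs.Normal := by
  constructor
  intro n hn g
  have h := Zs_le_center hn
  rw [mem_center_iff] at h
  rw [h g, mul_assoc, mul_inv_cancel, mul_one]
  exact hn

theorem zQ_sq : zQ * zQ = 1 := Subtype.ext zz_sq

theorem zQ_ne : zQ ≠ 1 := fun h => zz_ne (congrArg Subtype.val h)

/-- The letters in `Q`. -/
noncomputable def LQ (c : ℕ) : Q := if h : c < 6 then ⟨Lt c, Lt_mem h⟩ else 1

theorem LQ_coe {c : ℕ} (hc : c < 6) : ((LQ c : Q) : PX) = Lt c := by
  rw [LQ, dif_pos hc]

theorem prodA_LQ {l : List ℕ} (hl : ∀ z ∈ l, z < 6) : ((prodA LQ l : Q) : PX) = prodA Lt l := by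
  induction l with
  | nil => rfl
  | cons z l ih =>
    rw [prodA_cons, prodA_cons, Subgroup.coe_mul, LQ_coe (hl z List.mem_cons_self),
      ih (fun y hy => hl y (List.mem_cons_of_mem _ hy))]

/-- The letters in the quotient. -/
noncomputable def LT (c : ℕ) : Q ⧸ Zs := (QuotientGroup.mk (LQ c) : Q ⧸ Zs)

theorem prodA_map {Γ Δ : Type*} [Group Γ] [Group Δ] (f : Γ →* Δ) (E : ℕ → Γ) (l : List ℕ) :
    prodA (fun c => f (E c)) l = f (prodA E l) := by
  induction l with
  | nil => simp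
  | cons z l ih => simp [ih]

theorem prodA_LT (l : List ℕ) : prodA LT l = (QuotientGroup.mk (prodA LQ l) : Q ⧸ Zs) :=
  prodA_map (QuotientGroup.mk' Zs) LQ l

theorem LT_rel : ∀ l ∈ rels', prodA LT l = 1 := by
  intro l hl
  rw [prodA_LT, QuotientGroup.eq_one_iff]
  rcases rel_cases hl with h | h
  · have : prodA LQ l = 1 := by
      apply Subtype.ext
      rw [prodA_LQ (hk l hl), h]
      rfl
    rw [this]
    exact one_mem _
  · have : prodA LQ l = zQ := by
      apply Subtype.ext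
      rw [prodA_LQ (hk l hl), h]
      rfl
    rw [this]
    exact mem_zpowers _

theorem exists_psi : ∃ ψ : PresentedGroup Rp →* Q ⧸ Zs, ∀ c, c < Kp.k → ψ (Kp.E Rp c) = LT c := by
  refine exists_hom_of_letters hv (Cfsg.Agent.Lib.TC.SubPres.hR 6 rels' hk) LT ?_ LT_rel
  intro c hc
  have hc' : c < 6 := hc
  apply eq_inv_of_mul_eq_one_left
  have := LT_rel [c, c] (hsq c hc')
  simpa [Kp, Cfsg.Agent.Lib.TC.SubPres.K] using this

theorem simple_P : IsSimpleGroup (PresentedGroup Rp) := Cfsg.Agent.Lib.TC.D.SuzH.Main.simple_card.1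

theorem LT3_ne : LT 3 ≠ 1 := by
  rw [LT, Ne, QuotientGroup.eq_one_iff, Zs, mem_zpowers_iff]
  rintro ⟨k, hk⟩
  have hLQ : ((LQ 3 : Q) : PX) = Lt 3 := LQ_coe (by norm_num)
  rcases Int.even_or_odd' k with ⟨m, rfl | rfl⟩
  · have h1 : zQ ^ (2 * m) = 1 := by
      rw [zpow_mul, zpow_two, zQ_sq, one_zpow]
    rw [h1] at hk
    apply Lt3_ne_one
    rw [← hLQ, ← hk]
    rfl
  · have h1 : zQ ^ (2 * m + 1) = zQ := by
      rw [zpow_add, zpow_mul, zpow_two, zQ_sq, one_zpow, one_mul, zpow_one]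
    rw [h1] at hk
    apply Lt3_ne_zz
    rw [← hLQ, ← hk]
    rfl

theorem exists_equiv : Nonempty (PresentedGroup Rp ≃* Q ⧸ Zs) := by
  obtain ⟨ψ, hψ⟩ := exists_psi
  have hinj : Function.Injective ψ := by
    have := simple_P
    rcases (Subgroup.Normal.eq_bot_or_eq_top (inferInstance : ψ.ker.Normal)) with h | h
    · exact (MonoidHom.ker_eq_bot_iff ψ).1 h
    · exfalso
      have h2 : Kp.E Rp 3 ∈ ψ.ker := by
        rw [h]
        trivial
      rw [MonoidHom.mem_ker, hψ 3 (by decide)] at h2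
      exact LT3_ne h2
  have hsurj : Function.Surjective ψ := by
    have hall : ∀ (x : PX) (hx : x ∈ Q), ∃ y, ψ y = (QuotientGroup.mk ⟨x, hx⟩ : Q ⧸ Zs) := by
      intro x hx
      induction hx using closure_induction with
      | mem x hx =>
        obtain ⟨c, rfl⟩ := hx
        refine ⟨Kp.E Rp c, ?_⟩
        rw [hψ c c.2, LT]
        congr 1
        apply Subtype.ext
        exact LQ_coe c.2
      | one => exact ⟨1, by rw [map_one]; rfl⟩
      | mul a b ha hb iha ihb =>
        obtain ⟨y1, hy1⟩ := iha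
        obtain ⟨y2, hy2⟩ := ihb
        refine ⟨y1 * y2, ?_⟩
        rw [map_mul, hy1, hy2]
        rfl
      | inv a ha iha =>
        obtain ⟨y1, hy1⟩ := iha
        refine ⟨y1⁻¹, ?_⟩
        rw [map_inv, hy1]
        rfl
    intro x
    obtain ⟨x', rfl⟩ := QuotientGroup.mk_surjective x
    exact hall x'.1 x'.2
  exact ⟨MulEquiv.ofBijective ψ ⟨hinj, hsurj⟩⟩

theorem perfect_P : commutator (PresentedGroup Rp) = ⊤ := by
  have := simple_P
  apply Cfsg.Agent.Lib.TC.Perf.commutator_eq_top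
  by_contra hcon
  push Not at hcon
  have hcard := Cfsg.Agent.Lib.TC.D.SuzH.Main.simple_card.2
  letI : CommGroup (PresentedGroup Rp) := { (inferInstance : Group (PresentedGroup Rp)) with mul_comm := hcon }
  have hp := IsSimpleGroup.prime_card (α := PresentedGroup Rp)
  rw [hcard] at hp
  exact absurd hp (by norm_num)

/-- The twofold cover. -/
theorem exists_stem {H : Type} [Group H] (E : PresentedGroup Rp ≃* H) :
    ∃ σ : Q →* H, IsStemExtension σ ∧ Nat.card σ.ker = 2 := by
  obtain ⟨e⟩ := exists_equiv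
  let σ : Q →* H := E.toMonoidHom.comp (e.symm.toMonoidHom.comp (QuotientGroup.mk' Zs))
  have hker : σ.ker = Zs := by
    ext x
    simp only [σ, MonoidHom.mem_ker, MonoidHom.comp_apply]
    show E (e.symm (QuotientGroup.mk' Zs x)) = 1 ↔ _
    rw [EmbeddingLike.map_eq_one_iff, EmbeddingLike.map_eq_one_iff]
    exact QuotientGroup.eq_one_iff x
  have htop : commutator (Q ⧸ Zs) = ⊤ := by
    rw [← Subgroup.map_top_of_surjective e.toMonoidHom e.surjective, ← perfect_P]
    unfold _root_.commutator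
    rw [Subgroup.map_commutator, Subgroup.map_top_of_surjective e.toMonoidHom e.surjective]
  have hcomm : zQ ∈ commutator Q := by
    have h1 : (commutator Q).map (QuotientGroup.mk' Zs) = ⊤ := by
      unfold _root_.commutator
      rw [Subgroup.map_commutator, Subgroup.map_top_of_surjective _ (QuotientGroup.mk'_surjective Zs)]
      exact htop
    have h2 : (QuotientGroup.mk' Zs (LQ 3)) ∈ (commutator Q).map (QuotientGroup.mk' Zs) := by
      rw [h1]
      trivial
    obtain ⟨c, hc, hce⟩ := h2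
    have h3 : c⁻¹ * LQ 3 ∈ Zs := by
      rw [← QuotientGroup.eq]
      exact hce
    obtain ⟨k, hk⟩ := mem_zpowers_iff.1 h3
    have h4 : LQ 3 = c * zQ ^ k := by
      rw [hk]
      group
    have h5 : LQ 3 * LQ 3 = zQ := by
      apply Subtype.ext
      show ((LQ 3 : Q) : PX) * (LQ 3 : Q) = zz
      rw [LQ_coe (by norm_num)]
      rfl
    have h6 : ∀ m : ℤ, Commute (zQ ^ m) c := fun m =>
      Commute.zpow_left (show Commute zQ c from (zQ_central c).symm) m
    have h7 : zQ ^ k * zQ ^ k = 1 := by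
      rw [← zpow_add, ← two_mul, zpow_mul, zpow_two, zQ_sq, one_zpow]
    have h8 : zQ = c * c := by
      rw [← h5, h4]
      calc c * zQ ^ k * (c * zQ ^ k) = c * (zQ ^ k * c) * zQ ^ k := by group
        _ = c * (c * zQ ^ k) * zQ ^ k := by rw [(h6 k).eq]
        _ = c * c * (zQ ^ k * zQ ^ k) := by group
        _ = c * c := by rw [h7, mul_one]
    rw [h8]
    exact mul_mem hc hc
  refine ⟨σ, ⟨?_, ?_, ?_⟩, ?_⟩
  · exact E.surjective.comp (e.symm.surjective.comp (QuotientGroup.mk'_surjective Zs))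
  · rw [hker]
    exact Zs_le_center
  · rw [hker, Zs, zpowers_le]
    exact hcomm
  · rw [hker, Zs, Nat.card_zpowers]
    exact orderOf_eq_prime (by rw [pow_two, zQ_sq]) zQ_ne

end Cfsg.Agent.Lib.G24Sch.Cov
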